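import Cfsg.Agent.Lib.F4Code.Basic
import Cfsg.Agent.Lib.PSUBridge.Two
import Cfsg.Agent.Lib.Golay.Stab
import Cfsg.Agent.Lib.Golay.M24
import Cfsg.Agent.Lib.Classical.Transvections
import Cfsg.Agent.S0243
import Cfsg.Agent.S0819

/-!
# The stabiliser of three points in the group of the length-24 code is `PSL(3, 4)`

The 21 other points are coordinatised by the projective plane over the field with 4 elements; the three fixed points go to
the zero subspace.  Each transvection is matched with an explicit element of the code group along this map.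
-/

set_option autoImplicit false
set_option linter.style.longLine false
set_option linter.unusedSectionVars false

namespace Cfsg.Agent.Lib.M21PSL

open Cfsg Subgroup
open Cfsg.Agent.Lib.PSUBridge Cfsg.Agent.Lib.F4Code Cfsg.Agent.Lib.Golay.Core Cfsg.Agent.Lib.Golay.Perm
open Cfsg.Agent.Lib.Golay.Chain Cfsg.Agent.Lib.Golay.Stab Cfsg.Agent.Lib.Golay.M24
open Matrix

section Act

variable {F : Type*} [Field F] {n : ℕ}

/-- The image of a closed set. -/
def actL (g : SpecialLinearGroup (Fin n) F) (T : ScSet n F) : ScSet n F :=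
  ⟨(fun v => (g : Matrix (Fin n) (Fin n) F) *ᵥ v) '' T.1, by
    rintro c hc _ ⟨v, hv, rfl⟩
    exact ⟨c • v, T.2 c hc v hv, Matrix.mulVec_smul _ _ _⟩⟩

theorem actL_coe (g : SpecialLinearGroup (Fin n) F) (T : ScSet n F) :
    (actL g T).1 = (fun v => (g : Matrix (Fin n) (Fin n) F) *ᵥ v) '' T.1 := rfl

theorem mv_mul (g h : SpecialLinearGroup (Fin n) F) (v : Fin n → F) :
    ((g * h : SpecialLinearGroup (Fin n) F) : Matrix (Fin n) (Fin n) F) *ᵥ v =
      (g : Matrix (Fin n) (Fin n) F) *ᵥ ((h : Matrix (Fin n) (Fin n) F) *ᵥ v) := by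
  have h : ((g * h : SpecialLinearGroup (Fin n) F) : Matrix (Fin n) (Fin n) F) =
      (g : Matrix (Fin n) (Fin n) F) * (h : Matrix (Fin n) (Fin n) F) := rfl
  rw [h, Matrix.mulVec_mulVec]

theorem mv_one (v : Fin n → F) :
    ((1 : SpecialLinearGroup (Fin n) F) : Matrix (Fin n) (Fin n) F) *ᵥ v = v := by
  have h : ((1 : SpecialLinearGroup (Fin n) F) : Matrix (Fin n) (Fin n) F) = 1 := rfl
  rw [h, Matrix.one_mulVec]

theorem actL_mul (g h : SpecialLinearGroup (Fin n) F) (T : ScSet n F) : actL (g * h) T = actL g (actL h T) := by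
  apply Subtype.ext
  ext v
  simp only [actL_coe, Set.mem_image, exists_exists_and_eq_and, mv_mul]

theorem actL_one (T : ScSet n F) : actL (1 : SpecialLinearGroup (Fin n) F) T = T := by
  apply Subtype.ext
  ext v
  simp only [actL_coe, Set.mem_image, mv_one, exists_eq_right]

/-- The action on closed sets. -/
def rhoL0 : SpecialLinearGroup (Fin n) F →* Equiv.Perm (ScSet n F) where
  toFun g :=
    { toFun := actL g
      invFun := actL g⁻¹
      left_inv := fun T => by rw [← actL_mul, inv_mul_cancel, actL_one]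
      right_inv := fun T => by rw [← actL_mul, mul_inv_cancel, actL_one] }
  map_one' := by
    ext T
    simp only [Equiv.coe_fn_mk, actL_one]
    rfl
  map_mul' g h := by
    ext T
    simp only [Equiv.coe_fn_mk, actL_mul]
    rfl

theorem rhoL0_apply (g : SpecialLinearGroup (Fin n) F) (T : ScSet n F) : rhoL0 g T = actL g T := rfl

theorem rhoL0_center (hn : 0 < n) (z : SpecialLinearGroup (Fin n) F) (hz : z ∈ Subgroup.center (SpecialLinearGroup (Fin n) F)) :
    rhoL0 z = 1 := by
  have : Nonempty (Fin n) := ⟨⟨0, hn⟩⟩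
  obtain ⟨r, hr, hz'⟩ := Matrix.SpecialLinearGroup.mem_center_iff.1 hz
  have hr0 : r ≠ 0 := by
    rintro rfl
    rw [zero_pow (by simp; omega)] at hr
    exact zero_ne_one hr
  have ha : ∀ v : Fin n → F, (z : Matrix (Fin n) (Fin n) F) *ᵥ v = r • v := by
    intro v
    rw [← hz']
    ext i
    simp [Matrix.mulVec_smul, Matrix.scalar_apply, Matrix.mulVec_diagonal]
  ext T
  show actL z T = T
  apply Subtype.ext
  ext v
  rw [actL_coe]
  constructor
  · rintro ⟨u, hu, rfl⟩
    show (z : Matrix (Fin n) (Fin n) F) *ᵥ u ∈ T.1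
    rw [ha]
    exact T.2 r hr0 u hu
  · intro hv
    refine ⟨r⁻¹ • v, T.2 _ (inv_ne_zero hr0) v hv, ?_⟩
    show (z : Matrix (Fin n) (Fin n) F) *ᵥ (r⁻¹ • v) = v
    rw [ha, smul_smul, mul_inv_cancel₀ hr0, one_smul]

/-- The action of `PSL` on closed sets. -/
noncomputable def rhoL (hn : 0 < n) : ProjectiveSpecialLinearGroup (Fin n) F →* Equiv.Perm (ScSet n F) :=
  QuotientGroup.lift _ rhoL0 (fun z hz => rhoL0_center hn z hz)

theorem rhoL_mk (hn : 0 < n) (g : SpecialLinearGroup (Fin n) F) (T : ScSet n F) :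
    rhoL hn (QuotientGroup.mk g) T = actL g T := rfl

/-- The span of a vector. -/
def line (a : Fin n → F) : ScSet n F :=
  ⟨{v | ∃ s : F, v = s • a}, by
    rintro c - _ ⟨s, rfl⟩
    exact ⟨c * s, by rw [smul_smul]⟩⟩

theorem mem_line {a v : Fin n → F} : v ∈ (line a).1 ↔ ∃ s : F, v = s • a := Iff.rfl

theorem actL_line (g : SpecialLinearGroup (Fin n) F) (a : Fin n → F) :
    actL g (line a) = line ((g : Matrix (Fin n) (Fin n) F) *ᵥ a) := by
  apply Subtype.ext
  ext v
  rw [actL_coe]
  constructor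
  · rintro ⟨_, ⟨s, rfl⟩, rfl⟩
    exact ⟨s, Matrix.mulVec_smul _ _ _⟩
  · rintro ⟨s, rfl⟩
    exact ⟨s • a, ⟨s, rfl⟩, Matrix.mulVec_smul _ _ _⟩

theorem line_smul {c : F} (hc : c ≠ 0) (a : Fin n → F) : line (c • a) = line a := by
  apply Subtype.ext
  ext v
  constructor
  · rintro ⟨s, rfl⟩
    exact ⟨s * c, by rw [smul_smul]⟩
  · rintro ⟨s, rfl⟩
    exact ⟨s * c⁻¹, by rw [smul_smul, mul_assoc, inv_mul_cancel₀ hc, mul_one]⟩

end Act

/-- Coordinates of the points. -/
def vA : List ℕ := [0, 0, 1, 16, 256, 33, 273, 545, 289, 529, 305, 784, 785, 257, 49, 801, 513, 17, 561, 272, 528, 817, 769, 0]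
def aOf (k : ℕ) : ℕ := vA.getD k 0

/-- The elements matched with the transvections. -/
def Tab : List ℕ := [984818244535754528103549039458486304, 984818244535754528103549039458486304, 984818244535754528103549039458486304, 984818244535754528103549039458486304, 984818244535754528103549039458486304, 984235865005994746954145143334668320, 984724508489452699215480746259449888, 984202951082164080105044112956360736, 984818244535754528103549039458486304, 976448692869377735270425038196672544, 961365507626256404119956257276790816, 972512676110088067912772961567868960, 984818244535754528103549039458486304, 971594099268302134235014375640515616, 975366630392323105260605610366440480, 983560732202510771760283209707927584, 984818244535754528103549039458486304, 984818244535754528103549039458486304, 984818244535754528103549039458486304, 984818244535754528103549039458486304, 984818244535754528103549039458486304, 983548720921252936276249910206105632, 971592882964418941354553515258775584, 975346028712660580592452217730074656,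 984818244535754528103549039458486304, 976908108085554797803774220334904352, 972689358314341295732538083389849632, 958572796407684634971422541721229344, 984818244535754528103549039458486304, 984522237791282842243827263779473440, 984674686509231270848998217272133664, 984370798342469428377360417207715872, 984818244535754528103549039458486304, 984818244535754528103549039458486304, 984818244535754528103549039458486304, 984818244535754528103549039458486304]
def tOf (i j x : ℕ) : ℕ := Tab.getD (4 * (3 * i + j) + x) 0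

/-- The matrix of a transvection. -/
def mkN (i j x : ℕ) : ℕ := 1 + 2 ^ 16 + 2 ^ 32 + x * 2 ^ (4 * (3 * i + j))

theorem from_all {p : ℕ → ℕ → ℕ → Bool}
    (h : allUpTo (fun i => allUpTo (fun j => Nat.beq i j || allUpTo (fun x => p i j x) 4) 3) 3 = true) :
    ∀ i < 3, ∀ j < 3, i ≠ j → ∀ x < 4, p i j x = true := by
  intro i hi j hj hij x hx
  have h1 := allUpTo_iff.mp (allUpTo_iff.mp h i hi) j hj
  rw [Bool.or_eq_true] at h1
  rcases h1 with h2 | h2
  · exact absurd (Nat.eq_of_beq_eq_true h2) hij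
  · exact allUpTo_iff.mp h2 x hx

theorem mkN_e : ∀ i < 3, ∀ j < 3, i ≠ j → ∀ x < 4, ∀ a < 3, ∀ b < 3,
    e 3 (mkN i j x) a b = if a = b then 1 else if a = i ∧ b = j then x else 0 := by
  have h : allUpTo (fun i => allUpTo (fun j => Nat.beq i j || allUpTo (fun x =>
      allUpTo (fun a => allUpTo (fun b => Nat.beq (e 3 (mkN i j x) a b)
        (if a = b then 1 else if a = i ∧ b = j then x else 0)) 3) 3) 4) 3) 3 = true := by decide +kernel
  intro i hi j hj hij x hx a ha b hb
  exact Nat.eq_of_beq_eq_true (allUpTo_iff.mp (allUpTo_iff.mp (from_all h i hi j hj hij x hx) a ha) b hb)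

def matchOne (N u v : ℕ) : Bool :=
  (List.range 4).any fun s => (!(Nat.beq s 0)) && allUpTo (fun a => Nat.beq (mulC s (vv v a)) (mvi 3 N u a)) 3

def okT (i j x : ℕ) : Bool :=
  checkAut (tOf i j x) && Nat.beq (img (tOf i j x) 0) 0 && Nat.beq (img (tOf i j x) 1) 1 &&
    Nat.beq (img (tOf i j x) 23) 23 &&
    allUpTo (fun k => matchOne (mkN i j x) (aOf k) (aOf (img (tOf i j x) k))) 24

theorem okT_all : ∀ i < 3, ∀ j < 3, i ≠ j → ∀ x < 4, okT i j x = true :=
  from_all (by decide +kernel)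

theorem mv_move : mvi 3 (mkN 0 1 1) 16 0 = 1 := by decide +kernel
theorem a3 : aOf 3 = 16 := by decide +kernel
theorem v0 : vv 16 0 = 0 := by decide +kernel

section Main

variable {F : Type} [Field F] [Fintype F] {w : F}

/-- The map to subspaces. -/
def LL (w : F) (x : GolayPt) : ScSet 3 F := line (toV 3 w (aOf (idx x)))

theorem transv_toK (hw : w ^ 2 + w + 1 = 0) (h2 : (2 : F) = 0) {i j : Fin 3} (hij : i ≠ j) {x : ℕ} (hx : x < 4) :
    ((SpecialLinearGroup.transvection hij (φ w x) : SpecialLinearGroup (Fin 3) F) : Matrix (Fin 3) (Fin 3) F) =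
      toK 3 w (mkN i.1 j.1 x) := by
  rw [SpecialLinearGroup.transvection_coe]
  ext a b
  have hij' : i.1 ≠ j.1 := fun h => hij (Fin.ext h)
  rw [toK_apply, mkN_e i.1 i.2 j.1 j.2 hij' x hx a.1 a.2 b.1 b.2, Matrix.add_apply,
    Matrix.one_apply, Matrix.single_apply]
  by_cases hab : a = b
  · subst hab
    have h3 : ¬ (i = a ∧ j = a) := fun h => hij (h.1.trans h.2.symm)
    simp [h3, φ_one hw h2]
  · have hab' : a.1 ≠ b.1 := fun h => hab (Fin.ext h)
    by_cases h3 : i = a ∧ j = b
    · obtain ⟨rfl, rfl⟩ := h3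
      simp [hab, hij']
    · have h4 : ¬ (a.1 = i.1 ∧ b.1 = j.1) := fun h => h3 ⟨(Fin.ext h.1).symm, (Fin.ext h.2).symm⟩
      simp [hab, hab', h3, h4, φ_zero hw h2]

theorem phi_ne (hw : w ^ 2 + w + 1 = 0) (h2 : (2 : F) = 0) {s : ℕ} (hs : s < 4) (h0 : s ≠ 0) : φ w s ≠ 0 := by
  intro h
  have h1 : φ w s = φ w 0 := by rw [h, φ_zero hw h2]
  exact h0 (φ_inj hw h2 hs (by norm_num) h1)

theorem matchOne_spec (hw : w ^ 2 + w + 1 = 0) (h2 : (2 : F) = 0) {i j : Fin 3} (hij : i ≠ j) {x u v : ℕ} (hx : x < 4) (h : matchOne (mkN i.1 j.1 x) u v = true) :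
    line (toV 3 w v) = actL (SpecialLinearGroup.transvection hij (φ w x)) (line (toV 3 w u)) := by
  rw [actL_line, transv_toK hw h2 hij hx]
  simp only [matchOne, List.any_eq_true, List.mem_range, Bool.and_eq_true, Bool.not_eq_true'] at h
  obtain ⟨s, hs, h0, h1⟩ := h
  have h0' : s ≠ 0 := by
    rintro rfl
    exact absurd h0 (by decide)
  have h3 : toK 3 w (mkN i.1 j.1 x) *ᵥ toV 3 w u = φ w s • toV 3 w v := by
    ext a
    rw [mv_toV hw h2, ← Nat.eq_of_beq_eq_true (allUpTo_iff.mp h1 a.1 a.2), φ_mul hw h2]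
    rfl
  rw [h3, line_smul (phi_ne hw h2 hs h0')]

/-- The pairs. -/
def SS (w : F) : Set (ProjectiveSpecialLinearGroup (Fin 3) F × ↥(Fix [1, 0, 23])) :=
  {s | ∃ (i j : Fin 3) (hij : i ≠ j) (x : ℕ) (_ : x < 4),
    s.1 = QuotientGroup.mk (SpecialLinearGroup.transvection hij (φ w x)) ∧ s.2.1 = g (tOf i.1 j.1 x)}

theorem okT_all' (i j : Fin 3) (hij : i ≠ j) {x : ℕ} (hx : x < 4) : okT i.1 j.1 x = true :=
  okT_all i.1 i.2 j.1 j.2 (fun h => hij (Fin.ext h)) x hx

theorem tOf_mem (i j : Fin 3) (hij : i ≠ j) {x : ℕ} (hx : x < 4) : g (tOf i.1 j.1 x) ∈ Fix [1, 0, 23] := by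
  have h := okT_all' i j hij hx
  simp only [okT, Bool.and_eq_true] at h
  obtain ⟨⟨⟨⟨h1, h2⟩, h3⟩, h4⟩, -⟩ := h
  have hv := checkAut_valid h1
  rw [mem_Fix]
  refine ⟨g_mem_M24 h1, ?_⟩
  intro y hy
  simp only [List.mem_cons, List.not_mem_nil, or_false] at hy
  rcases hy with rfl | rfl | rfl
  · rw [g_pt hv (by norm_num), Nat.eq_of_beq_eq_true h3]
  · rw [g_pt hv (by norm_num), Nat.eq_of_beq_eq_true h2]
  · rw [g_pt hv (by norm_num), Nat.eq_of_beq_eq_true h4]

theorem SS_compat (hw : w ^ 2 + w + 1 = 0) (h2 : (2 : F) = 0) (s) (hs : s ∈ SS w) (y : GolayPt) :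
    LL w ((Fix [1, 0, 23]).subtype s.2 y) = rhoL (by norm_num) s.1 (LL w y) := by
  obtain ⟨i, j, hij, x, hx, h1, h3⟩ := hs
  have h := okT_all' i j hij hx
  simp only [okT, Bool.and_eq_true] at h
  obtain ⟨⟨⟨⟨h4, -⟩, -⟩, -⟩, h5⟩ := h
  have hv := checkAut_valid h4
  have hk := idx_lt y
  have h6 := matchOne_spec (w := w) hw h2 hij hx (allUpTo_iff.mp h5 _ hk)
  have h7 : (Fix [1, 0, 23]).subtype s.2 y = pt (img (tOf i.1 j.1 x) (idx y)) := by
    show s.2.1 y = _
    rw [h3, g_apply hv]
  rw [h7, h1, rhoL_mk]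
  unfold LL
  rw [idx_pt (valid_img_lt hv hk)]
  exact h6

theorem SS_gen (hw : w ^ 2 + w + 1 = 0) (h2 : (2 : F) = 0) (hF : Fintype.card F = 4) :
    closure (Prod.fst '' SS w) = ⊤ := by
  have h1 : (⊤ : Subgroup (SpecialLinearGroup (Fin 3) F)).map
      (QuotientGroup.mk' (Subgroup.center (SpecialLinearGroup (Fin 3) F))) = ⊤ :=
    (MonoidHom.range_eq_map _).symm.trans (QuotientGroup.range_mk' _)
  rw [eq_top_iff, ← h1, ← Cfsg.Agent.Lib.Classical.Transvections.closure_transvections_eq_top, MonoidHom.map_closure,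
    closure_le]
  rintro _ ⟨_, ⟨i, j, hij, a, rfl⟩, rfl⟩
  obtain ⟨x, hx, rfl⟩ := φ_surj hw h2 hF a
  apply Subgroup.subset_closure
  refine ⟨(QuotientGroup.mk (SpecialLinearGroup.transvection hij (φ w x)), ⟨g (tOf i.1 j.1 x), tOf_mem i j hij hx⟩),
    ⟨i, j, hij, x, hx, rfl, rfl⟩, rfl⟩

theorem nonempty_iso (hF : Fintype.card F = 4) : Nonempty (↥(Fix [1, 0, 23]) ≃* ProjectiveSpecialLinearGroup (Fin 3) F) := by
  obtain ⟨w, hw⟩ := Cfsg.Agent.S0819.exists_omega hF
  have h2 : (2 : F) = 0 := two_zero hF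
  have : IsSimpleGroup (ProjectiveSpecialLinearGroup (Fin 3) F) :=
    Cfsg.Agent.Lib.Classical.Transvections.psl_isSimpleGroup (by simp)
  have hpos : 0 < 3 := by norm_num
  refine bridge2 (Fix [1, 0, 23]).subtype (rhoL hpos) (LL w) (SS w) (SS_compat hw h2) (SS_gen hw h2 hF)
    (QuotientGroup.mk (SpecialLinearGroup.transvection (show (0 : Fin 3) ≠ 1 by decide) (φ w 1))) (pt 3) ?_ ?_
  · rw [rhoL_mk]
    unfold LL
    rw [idx_pt (by norm_num), a3, actL_line, transv_toK hw h2 _ (by norm_num)]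
    intro h
    have h3 : toK 3 w (mkN (0 : Fin 3).1 (1 : Fin 3).1 1) *ᵥ toV 3 w 16 ∈ (line (toV 3 w 16)).1 := by
      rw [← h]
      exact ⟨1, (one_smul _ _).symm⟩
    obtain ⟨s, hs⟩ := h3
    have h4 := congrFun hs 0
    rw [mv_toV hw h2] at h4
    have h5 : φ w (mvi 3 (mkN (0 : Fin 3).1 (1 : Fin 3).1 1) 16 (0 : Fin 3).1) = 1 := by
      have : mvi 3 (mkN (0 : Fin 3).1 (1 : Fin 3).1 1) 16 (0 : Fin 3).1 = 1 := mv_move
      rw [this, φ_one hw h2]
    rw [h5] at h4
    have h6 : toV 3 w 16 (0 : Fin 3) = 0 := by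
      rw [toV_apply]
      have : vv 16 (0 : Fin 3).1 = 0 := v0
      rw [this, φ_zero hw h2]
    simp only [Pi.smul_apply, h6, smul_eq_mul, mul_zero] at h4
    exact one_ne_zero h4
  · have h7 := Cfsg.Agent.S0243.result hF 3 (by norm_num)
    rw [Fin.prod_univ_three] at h7
    norm_num at h7
    rw [card_F3]
    omega

end Main

end Cfsg.Agent.Lib.M21PSL
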